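import Cfsg.Agent.Lib.Helper99.GUSP.Defs
import Cfsg.Agent.Lib.Helper94.Symp

/-!
# GUSP (S5976) package [DERP]: a symplectic transvection is a derangement for `N(K)`.

`x w = w + B(w, v) v` with `v = e_0`.  If `x α = ± α x` then `α v` is a multiple `c v` of `v`
and `c * c = a`, so `a` is a square.  (The hypothesis `PkgEven` is not needed.)
-/

set_option autoImplicit false

namespace Cfsg.Agent.Lib.Helper94.GUSP

open Matrix Cfsg Cfsg.Agent.Lib.Helper99.GUSP

universe u

theorem pkgDerP : PkgDerP.{u} := by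
  intro _ F _ _ p _ _ hodd d hd
  have h2 : (2 : F) ≠ 0 := by
    apply Ring.two_ne_zero
    intro h
    have := (FiniteField.even_card_iff_char_two (F := F)).1 h
    rcases hodd with ⟨k, hk⟩
    omega
  set i0 : Fin d := ⟨0, by omega⟩ with hi0
  set v : SI d → F := Pi.single (Sum.inl i0) 1 with hv
  set f : SI d → F := Pi.single (Sum.inr i0) 1 with hf
  have hfv : sympForm d F f v = 1 := by
    rw [sf_eq]
    simp [hv, hf, Pi.single_apply]
  have hvv : sympForm d F v v = 0 := sf_self d v
  have hv0 : v (Sum.inl i0) = 1 := by simp [hv]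
  have hf0 : f (Sum.inl i0) = 0 := by simp [hf]
  set x := sympTransGL d v (1 : F) with hx
  have hxw : ∀ w, (x : Matrix (SI d) (SI d) F) *ᵥ w = w + sympForm d F w v • v := by
    intro w
    rw [hx, sympTransGL_mulVec, one_mul]
  have hpow : ∀ (k : ℕ) w, ((x : Matrix (SI d) (SI d) F) ^ k) *ᵥ w
      = w + ((k : F) * sympForm d F w v) • v := by
    intro k
    induction k with
    | zero => intro w; simp
    | succ k ih =>
      intro w
      rw [pow_succ, ← Matrix.mulVec_mulVec, hxw, Matrix.mulVec_add, Matrix.mulVec_smul, ih, ih,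
        hvv]
      push_cast
      module
  refine ⟨x, sympTransGL_mem d v 1, ?_, ?_, ?_⟩
  · apply Matrix.mulVec_injective
    funext w
    rw [hpow, CharP.cast_eq_zero, zero_mul, zero_smul, add_zero, Matrix.one_mulVec]
  · intro z hz
    have h1 := hxw f
    rw [hz, hfv, Matrix.smul_mulVec, Matrix.one_mulVec, one_smul] at h1
    have h3 := congrFun h1 (Sum.inl i0)
    simp only [Pi.smul_apply, Pi.add_apply, hf0, hv0, smul_eq_mul, mul_zero, zero_add] at h3
    exact zero_ne_one h3
  · intro a α ha hα hpm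
    apply ha
    obtain ⟨hsq, hskew⟩ := hα
    have key : ∀ c : F, α *ᵥ v = c • v → IsSquare a := by
      intro c hc
      refine ⟨c, ?_⟩
      have h1 : (α * α) *ᵥ v = a • v := by rw [hsq, Matrix.smul_mulVec, Matrix.one_mulVec]
      rw [← Matrix.mulVec_mulVec, hc, Matrix.mulVec_smul, hc, smul_smul] at h1
      have h3 := congrFun h1 (Sum.inl i0)
      simp only [Pi.smul_apply, hv0, smul_eq_mul, mul_one] at h3
      exact h3.symm
    rcases hpm with h | h
    · have h1 : (x : Matrix (SI d) (SI d) F) *ᵥ (α *ᵥ f)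
          = α *ᵥ ((x : Matrix (SI d) (SI d) F) *ᵥ f) := by
        rw [Matrix.mulVec_mulVec, Matrix.mulVec_mulVec, h]
      rw [hxw, hxw, hfv, one_smul, Matrix.mulVec_add] at h1
      exact key (sympForm d F (α *ᵥ f) v) (add_left_cancel h1).symm
    · have h1 : (x : Matrix (SI d) (SI d) F) *ᵥ (α *ᵥ v)
          = -(α *ᵥ ((x : Matrix (SI d) (SI d) F) *ᵥ v)) := by
        rw [Matrix.mulVec_mulVec, Matrix.mulVec_mulVec, h, Matrix.neg_mulVec]
      rw [hxw, hxw, hvv, zero_smul, add_zero] at h1
      apply key (-(sympForm d F (α *ᵥ v) v) / 2)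
      funext j
      have h3 := congrFun h1 j
      simp only [Pi.smul_apply, Pi.add_apply, Pi.neg_apply, smul_eq_mul] at h3 ⊢
      field_simp
      linear_combination h3

end Cfsg.Agent.Lib.Helper94.GUSP
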