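import Cfsg.Agent.Lib.Helper99.GUSP.Asm
import Cfsg.Agent.Lib.Helper94.Symp
import Cfsg.Agent.Lib.Helper74.GUSP.SpCard

/-!
# GUSP (S5976) package [INVM]: `x ∈ Sp`, `x * x = -1` anticommutes with some `α`.
-/

set_option autoImplicit false

namespace Cfsg.Agent.Lib.Helper94.GUSP

open Matrix Cfsg Cfsg.Agent.Lib.Helper99.GUSP

universe u

section

variable {F : Type u} [Field F] (d : ℕ)

theorem sfNegRight (u v : SI d → F) : sympForm d F u (-v) = - sympForm d F u v := by
  rw [← neg_one_smul F v, sf_smul_right, neg_one_mul]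

theorem sfNegLeft (u v : SI d → F) : sympForm d F (-u) v = - sympForm d F u v := by
  rw [← neg_one_smul F u, sf_smul_left, neg_one_mul]

/-- Gram entry of a pair of column-matrices. -/
theorem gramEntry (A A' : Matrix (SI d) (Fin d) F) (j k : Fin d) :
    (Aᵀ * (Matrix.J (Fin d) F * A')) j k
      = sympForm d F (fun i => A i j) (fun i => A' i k) := rfl

/-- A pair of column-matrices with standard Gram matrix gives a symplectic matrix. -/
theorem fromCols_mem_symplectic (U W : Matrix (SI d) (Fin d) F)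
    (hUU : ∀ j k, sympForm d F (fun i => U i j) (fun i => U i k) = 0)
    (hUW : ∀ j k, sympForm d F (fun i => U i j) (fun i => W i k) = if j = k then -1 else 0)
    (hWW : ∀ j k, sympForm d F (fun i => W i j) (fun i => W i k) = 0) :
    Matrix.fromCols U W ∈ Matrix.symplecticGroup (Fin d) F := by
  rw [SymplecticGroup.mem_iff', Matrix.transpose_fromCols, Matrix.mul_assoc, Matrix.mul_fromCols,
    Matrix.fromRows_mul_fromCols]
  have hJ : Matrix.J (Fin d) F = fromBlocks 0 (-1) 1 0 := rfl
  conv_rhs => rw [hJ]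
  congr 1
  · ext j k
    rw [gramEntry, hUU]
    rfl
  · ext j k
    rw [gramEntry, hUW]
    by_cases hjk : j = k
    · subst hjk
      simp
    · simp [hjk]
  · ext j k
    rw [gramEntry, sf_swap, hUW]
    by_cases hjk : j = k
    · subst hjk
      simp
    · simp [hjk, Ne.symm hjk]
  · ext j k
    rw [gramEntry, hWW]
    rfl

end

theorem pkgInvM : PkgInvM.{u} := by
  intro hPeel F _ _ hodd d a ha x hx hxx
  have h2 : (2 : F) ≠ 0 := by
    apply Ring.two_ne_zero
    intro h
    have := (FiniteField.even_card_iff_char_two (F := F)).1 h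
    rcases hodd with ⟨k, hk⟩
    omega
  obtain ⟨X, hX⟩ : ∃ X : Matrix (SI d) (SI d) F, X = (x : Matrix (SI d) (SI d) F) := ⟨_, rfl⟩
  rw [← hX] at hxx
  have hxB : ∀ u v : SI d → F, sympForm d F (X *ᵥ u) (X *ᵥ v) = sympForm d F u v := by
    rw [hX]
    exact hx
  have hXX : ∀ v : SI d → F, X *ᵥ (X *ᵥ v) = -v := by
    intro v
    rw [Matrix.mulVec_mulVec, hxx, Matrix.neg_mulVec, Matrix.one_mulVec]
  have hskew : ∀ u v : SI d → F, sympForm d F (X *ᵥ u) v = - sympForm d F u (X *ᵥ v) := by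
    intro u v
    have h1 := hxB u (X *ᵥ v)
    rw [hXX, sfNegRight] at h1
    rw [← h1, neg_neg]
  have hIsA : IsAlpha d (-1 : F) X := ⟨by rw [hxx, neg_smul, one_smul], hskew⟩
  obtain ⟨u, hc, horth⟩ := hPeel h2 d (-1) X (by simp) hIsA
  obtain ⟨c, hcdef⟩ : ∃ c : Fin d → F, c = fun j => sympForm d F (X *ᵥ u j) (u j) := ⟨_, rfl⟩
  have hc0 : ∀ j, c j ≠ 0 := by
    intro j
    rw [hcdef]
    exact hc j
  have huu : ∀ j k, sympForm d F (u j) (u k) = 0 := by
    intro j k
    by_cases hjk : j = k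
    · subst hjk
      exact sf_self d _
    · exact (horth j k hjk).1
  have hXuu : ∀ j k, sympForm d F (X *ᵥ u j) (u k) = if j = k then c j else 0 := by
    intro j k
    by_cases hjk : j = k
    · subst hjk
      rw [if_pos rfl, hcdef]
    · rw [if_neg hjk]
      exact (horth j k hjk).2
  -- the column matrices
  obtain ⟨U, hU⟩ : ∃ U : Matrix (SI d) (Fin d) F, U = Matrix.of fun i j => u j i := ⟨_, rfl⟩
  obtain ⟨W, hW⟩ : ∃ W : Matrix (SI d) (Fin d) F,
      W = Matrix.of fun i j => (c j)⁻¹ * (X *ᵥ u j) i := ⟨_, rfl⟩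
  have hUcol : ∀ j, (fun i => U i j) = u j := by
    intro j
    rw [hU]
    rfl
  have hWcol : ∀ j, (fun i => W i j) = (c j)⁻¹ • (X *ᵥ u j) := by
    intro j
    rw [hW]
    rfl
  have hG : Matrix.fromCols U W ∈ Matrix.symplecticGroup (Fin d) F := by
    apply fromCols_mem_symplectic
    · intro j k
      rw [hUcol, hUcol, huu]
    · intro j k
      rw [hUcol, hWcol, sf_smul_right, ← neg_neg (sympForm d F (u j) (X *ᵥ u k)), ← hskew, hXuu]
      by_cases hjk : j = k
      · subst hjk
        rw [if_pos rfl, if_pos rfl]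
        field_simp [hc0 j]
      · rw [if_neg hjk, if_neg hjk, neg_zero, mul_zero]
    · intro j k
      rw [hWcol, hWcol, sf_smul_left, sf_smul_right, hxB, huu, mul_zero, mul_zero]
  obtain ⟨g, hg, hgG⟩ : ∃ g : GL (SI d) F, g ∈ spGL d F ∧
      (g : Matrix (SI d) (SI d) F) = Matrix.fromCols U W :=
    ⟨((Cfsg.Agent.Lib.Helper74.GUSP.spGLEquiv d F).symm ⟨_, hG⟩ : GL (SI d) F),
      Subtype.property _, rfl⟩
  obtain ⟨G, hGdef⟩ : ∃ G : Matrix (SI d) (SI d) F, G = (g : Matrix (SI d) (SI d) F) := ⟨_, rfl⟩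
  obtain ⟨G', hG'def⟩ : ∃ G' : Matrix (SI d) (SI d) F,
      G' = ((g⁻¹ : GL (SI d) F) : Matrix (SI d) (SI d) F) := ⟨_, rfl⟩
  have hG'G : G' * G = 1 := by rw [hGdef, hG'def]; exact gl_inv_mul g
  have hGG' : G * G' = 1 := by rw [hGdef, hG'def]; exact gl_mul_inv g
  have hGcols : G = Matrix.fromCols U W := by rw [hGdef, hgG]
  -- the normal form of X
  obtain ⟨X₀, hX₀⟩ : ∃ X₀ : Matrix (SI d) (SI d) F,
      X₀ = fromBlocks 0 (diagonal fun j => -(c j)⁻¹) (diagonal c) 0 := ⟨_, rfl⟩
  have hXG : X * G = G * X₀ := by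
    rw [hGcols, hX₀, Matrix.mul_fromCols, Matrix.fromCols_mul_fromBlocks]
    congr 1
    · rw [Matrix.mul_zero, zero_add]
      ext i j
      rw [Matrix.mul_diagonal]
      have h1 : (X * U) i j = (X *ᵥ u j) i := by rw [hU]; rfl
      have h3 : W i j = (c j)⁻¹ * (X *ᵥ u j) i := by rw [hW]; rfl
      rw [h1, h3]
      field_simp [hc0 j]
    · rw [Matrix.mul_zero, add_zero]
      ext i j
      rw [Matrix.mul_diagonal]
      have h1 : (X * W) i j = (X *ᵥ ((c j)⁻¹ • (X *ᵥ u j))) i := by rw [hW]; rfl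
      have h3 : U i j = u j i := by rw [hU]; rfl
      rw [h1, h3, Matrix.mulVec_smul, hXX]
      simp only [Pi.smul_apply, Pi.neg_apply, smul_eq_mul]
      ring
  have hG'X : G' * X = X₀ * G' := by
    calc G' * X = G' * (X * G) * G' := by
          simp only [Matrix.mul_assoc]
          rw [hGG', Matrix.mul_one]
      _ = G' * (G * X₀) * G' := by rw [hXG]
      _ = X₀ * G' := by
          rw [← Matrix.mul_assoc, hG'G, Matrix.one_mul]
  -- the choice of s, t
  obtain ⟨s, t, hst⟩ : ∃ s t : F, s * s + t * t = a := by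
    have hR : Fintype.card F % 2 = 1 := Nat.odd_iff.1 hodd
    obtain ⟨s, t, h⟩ := FiniteField.exists_root_sum_quadratic
      (f := (Polynomial.X : Polynomial F) ^ 2)
      (g := (Polynomial.X : Polynomial F) ^ 2 - Polynomial.C a)
      (Polynomial.degree_X_pow 2) (Polynomial.degree_X_pow_sub_C (by norm_num) a) hR
    refine ⟨s, t, ?_⟩
    simp only [Polynomial.eval_pow, Polynomial.eval_X, Polynomial.eval_sub,
      Polynomial.eval_C] at h
    linear_combination h
  obtain ⟨M, hM⟩ : ∃ M : Matrix (SI d) (SI d) F,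
      M = fromBlocks (diagonal fun _ => s) (diagonal fun j => t * (c j)⁻¹)
        (diagonal fun j => t * c j) (diagonal fun _ => -s) := ⟨_, rfl⟩
  have hMM : M * M = a • (1 : Matrix (SI d) (SI d) F) := by
    have e1 : ∀ j, s * s + t * (c j)⁻¹ * (t * c j) = a := by
      intro j
      have := hc0 j
      field_simp
      linear_combination hst
    have e2 : ∀ j, s * (t * (c j)⁻¹) + t * (c j)⁻¹ * -s = 0 := by
      intro j
      ring
    have e3 : ∀ j, t * c j * s + -s * (t * c j) = 0 := by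
      intro j
      ring
    have e4 : ∀ j, t * c j * (t * (c j)⁻¹) + -s * -s = a := by
      intro j
      have := hc0 j
      field_simp
      linear_combination hst
    rw [hM, Matrix.fromBlocks_multiply]
    simp only [Matrix.diagonal_mul_diagonal, Matrix.diagonal_add, e1, e2, e3, e4]
    rw [← Matrix.fromBlocks_one, Matrix.fromBlocks_smul]
    congr 1
    · rw [Matrix.smul_one_eq_diagonal]
    · rw [smul_zero]
      exact Matrix.diagonal_zero
    · rw [smul_zero]
      exact Matrix.diagonal_zero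
    · rw [Matrix.smul_one_eq_diagonal]
  have hMskew : ∀ v w : SI d → F, sympForm d F (M *ᵥ v) w = - sympForm d F v (M *ᵥ w) := by
    intro v w
    rw [sf_eq, sf_eq, ← Finset.sum_neg_distrib]
    apply Finset.sum_congr rfl
    intro i _
    have hl : ∀ z : SI d → F, (M *ᵥ z) (Sum.inl i) = s * z (Sum.inl i)
        + t * (c i)⁻¹ * z (Sum.inr i) := by
      intro z
      rw [hM, Matrix.fromBlocks_mulVec]
      simp only [Sum.elim_inl, Pi.add_apply, Matrix.mulVec_diagonal, Function.comp_apply]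
    have hr : ∀ z : SI d → F, (M *ᵥ z) (Sum.inr i) = t * c i * z (Sum.inl i)
        + -s * z (Sum.inr i) := by
      intro z
      rw [hM, Matrix.fromBlocks_mulVec]
      simp only [Sum.elim_inr, Pi.add_apply, Matrix.mulVec_diagonal, Function.comp_apply]
    rw [hl, hr, hl, hr]
    have := hc0 i
    field_simp
    ring
  have hXM : X₀ * M = -(M * X₀) := by
    have e1 : ∀ j, -(c j)⁻¹ * (t * c j) = -(t * (c j)⁻¹ * c j) := by
      intro j
      ring
    have e2 : ∀ j, -(c j)⁻¹ * -s = -(s * -(c j)⁻¹) := by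
      intro j
      ring
    have e3 : ∀ j, c j * s = -(-s * c j) := by
      intro j
      ring
    have e4 : ∀ j, c j * (t * (c j)⁻¹) = -(t * c j * -(c j)⁻¹) := by
      intro j
      ring
    rw [hM, hX₀, Matrix.fromBlocks_multiply, Matrix.fromBlocks_multiply, Matrix.fromBlocks_neg]
    simp only [Matrix.diagonal_mul_diagonal, Matrix.zero_mul, Matrix.mul_zero, zero_add, add_zero,
      e1, e2, e3, e4, Matrix.diagonal_neg]
  have hMα : IsAlpha d a M := ⟨hMM, hMskew⟩
  refine ⟨(g : Matrix (SI d) (SI d) F) * M * ((g⁻¹ : GL (SI d) F) : Matrix (SI d) (SI d) F),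
    isAlpha_conj hMα g hg, Or.inr ?_⟩
  rw [← hX, ← hGdef, ← hG'def]
  calc X * (G * M * G') = (X * G) * M * G' := by simp only [Matrix.mul_assoc]
    _ = G * (X₀ * M) * G' := by
        rw [hXG]
        simp only [Matrix.mul_assoc]
    _ = -(G * M * (X₀ * G')) := by
        rw [hXM]
        simp only [Matrix.mul_neg, Matrix.neg_mul, Matrix.mul_assoc]
    _ = -(G * M * G' * X) := by
        rw [← hG'X]
        simp only [Matrix.mul_assoc]

end Cfsg.Agent.Lib.Helper94.GUSP
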