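import Cfsg.Agent.Lib.Helper99.GUSP.Defs

/-!
# GUSP (S5976) package [NORM]: `g` normalizes `K = F + F α` iff `g α = ± α g`.
-/

set_option autoImplicit false

namespace Cfsg.Agent.Lib.Helper94.GUSP

open Matrix Cfsg Cfsg.Agent.Lib.Helper99.GUSP

universe u

theorem pkgNorm : PkgNorm.{u} := by
  intro F _ _ hodd d hd K a α ha hα hK g _
  have h2 : (2 : F) ≠ 0 := by
    apply Ring.two_ne_zero
    intro h
    have := (FiniteField.even_card_iff_char_two (F := F)).1 h
    rcases hodd with ⟨k, hk⟩
    omega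
  obtain ⟨hsq, -⟩ := hα
  have ha0 : a ≠ 0 := by
    rintro rfl
    exact ha ⟨0, by simp⟩
  set i0 : SI d := Sum.inl ⟨0, by omega⟩ with hi0
  have hone : ∀ s : F, s • (1 : Matrix (SI d) (SI d) F) = 0 → s = 0 := by
    intro s hs
    have h1 := congrFun (congrFun hs i0) i0
    simpa using h1
  have hind : ∀ s t : F, s • (1 : Matrix (SI d) (SI d) F) + t • α = 0 → s = 0 ∧ t = 0 := by
    intro s t hst
    by_cases ht : t = 0
    · subst ht
      rw [zero_smul, add_zero] at hst
      exact ⟨hone s hst, rfl⟩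
    · exfalso
      apply ha
      have hα' : α = (-s / t) • (1 : Matrix (SI d) (SI d) F) := by
        have h1 : t • α = (-s) • (1 : Matrix (SI d) (SI d) F) := by
          rw [neg_smul]
          exact eq_neg_of_add_eq_zero_right hst
        rw [div_eq_inv_mul, mul_smul, ← h1, smul_smul, inv_mul_cancel₀ ht, one_smul]
      refine ⟨-s / t, ?_⟩
      have h1 : a • (1 : Matrix (SI d) (SI d) F) = ((-s / t) * (-s / t)) • 1 := by
        rw [← hsq]
        conv_lhs => rw [hα']
        rw [smul_mul_smul_comm, mul_one]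
      have h3 : (a - (-s / t) * (-s / t)) • (1 : Matrix (SI d) (SI d) F) = 0 := by
        rw [sub_smul, h1, sub_self]
      exact sub_eq_zero.1 (hone _ h3)
  have hgi : ((g⁻¹ : GL (SI d) F) : Matrix (SI d) (SI d) F) * (g : Matrix (SI d) (SI d) F) = 1 :=
    Units.inv_mul g
  have hig : (g : Matrix (SI d) (SI d) F) * ((g⁻¹ : GL (SI d) F) : Matrix (SI d) (SI d) F) = 1 :=
    Units.mul_inv g
  have hαK : α ∈ K := (hK α).2 ⟨0, 1, by simp⟩
  constructor
  · intro hg
    have hg' : ∀ k : Matrix (SI d) (SI d) F, k ∈ K ↔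
        (g : Matrix (SI d) (SI d) F) * k * ((g⁻¹ : GL (SI d) F) : Matrix (SI d) (SI d) F) ∈ K := hg
    obtain ⟨x, y, hxy⟩ := (hK _).1 ((hg' α).1 hαK)
    have hsq' : ((g : Matrix (SI d) (SI d) F) * α * ((g⁻¹ : GL (SI d) F) : Matrix (SI d) (SI d) F))
        * ((g : Matrix (SI d) (SI d) F) * α * ((g⁻¹ : GL (SI d) F) : Matrix (SI d) (SI d) F))
        = a • 1 := by
      calc _ = (g : Matrix (SI d) (SI d) F) * (α * (((g⁻¹ : GL (SI d) F) : Matrix (SI d) (SI d) F)
              * (g : Matrix (SI d) (SI d) F)) * α)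
              * ((g⁻¹ : GL (SI d) F) : Matrix (SI d) (SI d) F) := by
            simp only [Matrix.mul_assoc]
        _ = a • 1 := by
            rw [hgi, Matrix.mul_one, hsq, Matrix.mul_smul, Matrix.smul_mul, Matrix.mul_one, hig]
    rw [hxy] at hsq'
    have hexp : (x • (1 : Matrix (SI d) (SI d) F) + y • α) * (x • (1 : Matrix (SI d) (SI d) F) + y • α)
        = (x * x + y * y * a) • (1 : Matrix (SI d) (SI d) F) + (2 * x * y) • α := by
      simp only [add_mul, mul_add, smul_mul_smul_comm, mul_one, one_mul, hsq, smul_smul]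
      module
    rw [hexp] at hsq'
    have h0 : (x * x + y * y * a - a) • (1 : Matrix (SI d) (SI d) F) + (2 * x * y) • α = 0 := by
      rw [sub_smul, sub_add_eq_add_sub, hsq', sub_self]
    obtain ⟨h3, h4⟩ := hind _ _ h0
    have hy0 : y ≠ 0 := by
      rintro rfl
      apply ha
      refine ⟨x, ?_⟩
      linear_combination -h3
    have hx0 : x = 0 := by
      rcases mul_eq_zero.1 h4 with h5 | h5
      · rcases mul_eq_zero.1 h5 with h6 | h6
        · exact absurd h6 h2
        · exact h6
      · exact absurd h5 hy0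
    subst hx0
    have hyy : y * y = 1 := by
      have h5 : (y * y - 1) * a = 0 := by linear_combination h3
      rcases mul_eq_zero.1 h5 with h6 | h6
      · linear_combination h6
      · exact absurd h6 ha0
    rw [zero_smul, zero_add] at hxy
    have hga : (g : Matrix (SI d) (SI d) F) * α = y • (α * (g : Matrix (SI d) (SI d) F)) := by
      calc (g : Matrix (SI d) (SI d) F) * α
          = (g : Matrix (SI d) (SI d) F) * α * (((g⁻¹ : GL (SI d) F) : Matrix (SI d) (SI d) F)
              * (g : Matrix (SI d) (SI d) F)) := by rw [hgi, Matrix.mul_one]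
        _ = ((g : Matrix (SI d) (SI d) F) * α * ((g⁻¹ : GL (SI d) F) : Matrix (SI d) (SI d) F))
              * (g : Matrix (SI d) (SI d) F) := by simp only [Matrix.mul_assoc]
        _ = y • (α * (g : Matrix (SI d) (SI d) F)) := by rw [hxy, Matrix.smul_mul]
    rcases mul_self_eq_one_iff.1 hyy with h5 | h5
    · left
      rw [hga, h5, one_smul]
    · right
      rw [hga, h5, neg_one_smul]
  · intro hpm
    obtain ⟨e, hee, hge⟩ : ∃ e : F, e * e = 1 ∧
        (g : Matrix (SI d) (SI d) F) * α = e • (α * (g : Matrix (SI d) (SI d) F)) := by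
      rcases hpm with h | h
      · exact ⟨1, by simp, by rw [h, one_smul]⟩
      · exact ⟨-1, by simp, by rw [h, neg_one_smul]⟩
    have hc1 : (g : Matrix (SI d) (SI d) F) * α * ((g⁻¹ : GL (SI d) F) : Matrix (SI d) (SI d) F)
        = e • α := by
      rw [hge, Matrix.smul_mul, Matrix.mul_assoc, hig, Matrix.mul_one]
    have hc2 : ((g⁻¹ : GL (SI d) F) : Matrix (SI d) (SI d) F) * α * (g : Matrix (SI d) (SI d) F)
        = e • α := by
      have h1 : α * (g : Matrix (SI d) (SI d) F) = e • ((g : Matrix (SI d) (SI d) F) * α) := by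
        rw [hge, smul_smul, hee, one_smul]
      rw [Matrix.mul_assoc, h1, Matrix.mul_smul, ← Matrix.mul_assoc, hgi, Matrix.one_mul]
    show ∀ k : Matrix (SI d) (SI d) F, k ∈ K ↔
        (g : Matrix (SI d) (SI d) F) * k * ((g⁻¹ : GL (SI d) F) : Matrix (SI d) (SI d) F) ∈ K
    intro k
    constructor
    · intro hk
      obtain ⟨x, y, rfl⟩ := (hK k).1 hk
      apply (hK _).2
      refine ⟨x, y * e, ?_⟩
      rw [Matrix.mul_add, Matrix.add_mul, Matrix.mul_smul, Matrix.smul_mul, Matrix.mul_one, hig,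
        Matrix.mul_smul, Matrix.smul_mul, hc1, smul_smul]
    · intro hk
      obtain ⟨x, y, hxy⟩ := (hK _).1 hk
      apply (hK _).2
      refine ⟨x, y * e, ?_⟩
      calc k = (((g⁻¹ : GL (SI d) F) : Matrix (SI d) (SI d) F) * (g : Matrix (SI d) (SI d) F)) * k
              * (((g⁻¹ : GL (SI d) F) : Matrix (SI d) (SI d) F) * (g : Matrix (SI d) (SI d) F)) := by
            rw [hgi, Matrix.one_mul, Matrix.mul_one]
        _ = ((g⁻¹ : GL (SI d) F) : Matrix (SI d) (SI d) F) * ((g : Matrix (SI d) (SI d) F) * k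
              * ((g⁻¹ : GL (SI d) F) : Matrix (SI d) (SI d) F)) * (g : Matrix (SI d) (SI d) F) := by
            simp only [Matrix.mul_assoc]
        _ = x • (1 : Matrix (SI d) (SI d) F) + (y * e) • α := by
            rw [hxy, Matrix.mul_add, Matrix.add_mul, Matrix.mul_smul, Matrix.smul_mul,
              Matrix.mul_one, hgi, Matrix.mul_smul, Matrix.smul_mul, hc2, smul_smul]

end Cfsg.Agent.Lib.Helper94.GUSP
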